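import Mathlib
import Cfsg.Agent.S3977
import Cfsg.Agent.Lib.Helper87.Kul.Defs

/-!
# Kul E2 (helper87 farm): the number of maximal subgroups of a noncyclic `p`-group is `1 + p` mod `p^2`
-/

set_option autoImplicit false

namespace Cfsg.Agent.Lib.Helper93.Kul

open Cfsg.Agent.Lib.Helper87.Kul

section
variable {P : Type*} [Group P] [Finite P] (p a : ℕ) [hp : Fact p.Prime]

/-- homs to `Z_p` killing `S` -/
def annS (S : Subgroup P) : Subgroup (P →* Multiplicative (ZMod p)) where
  carrier := {f | S ≤ f.ker}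
  one_mem' := by intro x _; simp [MonoidHom.mem_ker]
  mul_mem' := by
    intro f g hf hg x hx
    have h1 := hf hx
    have h2 := hg hx
    rw [MonoidHom.mem_ker] at *
    simp [h1, h2]
  inv_mem' := by
    intro f hf x hx
    have h1 := hf hx
    rw [MonoidHom.mem_ker] at *
    simp [h1]

theorem mem_annS (S : Subgroup P) (f : P →* Multiplicative (ZMod p)) : f ∈ annS p S ↔ S ≤ f.ker :=
  Iff.rfl

omit [Finite P] in
theorem index_of_card (hP : Nat.card P = p ^ (a + 1)) (S : Subgroup P) (hS : Nat.card S = p ^ a) :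
    S.index = p := by
  have h := S.card_mul_index
  rw [hS, hP, pow_succ] at h
  exact Nat.eq_of_mul_eq_mul_left (pow_pos hp.out.pos a) h

omit [Finite P] in
theorem card_of_index (hP : Nat.card P = p ^ (a + 1)) (S : Subgroup P) (hS : S.index = p) :
    Nat.card S = p ^ a := by
  have h := S.card_mul_index
  rw [hS, hP, pow_succ] at h
  exact Nat.eq_of_mul_eq_mul_right hp.out.pos h

omit [Finite P] in
theorem eq_or_top (S K : Subgroup P) (hS : S.index = p) (h : S ≤ K) : K = S ∨ K = ⊤ := by
  have h1 := Subgroup.relIndex_mul_index h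
  rw [hS] at h1
  have h2 : K.index ∣ p := ⟨_, by rw [← h1, mul_comm]⟩
  rcases (Nat.dvd_prime hp.out).mp h2 with h3 | h3
  · right; exact Subgroup.index_eq_one.mp h3
  · left
    rw [h3] at h1
    have h4 : S.relIndex K = 1 :=
      Nat.eq_of_mul_eq_mul_right hp.out.pos (h1.trans (one_mul p).symm)
    exact le_antisymm (Subgroup.relIndex_eq_one.mp h4) h

theorem exists_hom (hP : Nat.card P = p ^ (a + 1)) (S : Subgroup P) (hS : S.index = p) :
    ∃ f : P →* Multiplicative (ZMod p), f.ker = S := by
  haveI : S.Normal := Subgroup.normal_of_index_eq_minFac_card (by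
    rw [hS, hP, Nat.Prime.pow_minFac hp.out (Nat.succ_ne_zero a)])
  have hq : Nat.card (P ⧸ S) = p := hS
  have hz : Nat.card (Multiplicative (ZMod p)) = p := by simp
  let e := mulEquivOfPrimeCardEq hq hz
  refine ⟨e.toMonoidHom.comp (QuotientGroup.mk' S), ?_⟩
  ext x
  simp [MonoidHom.mem_ker]

theorem card_annS (hP : Nat.card P = p ^ (a + 1)) (S : Subgroup P) (hS : S.index = p) :
    Nat.card (annS p S) = p := by
  obtain ⟨f0, hf0⟩ := exists_hom p a hP S hS
  have hne : S ≠ ⊤ := by
    intro h
    rw [h, Subgroup.index_top] at hS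
    exact hp.out.one_lt.ne hS
  obtain ⟨x, hx⟩ : ∃ x, x ∉ S := by
    by_contra hall
    push Not at hall
    exact hne (eq_top_iff.mpr fun x _ => hall x)
  let ev : annS p S →* Multiplicative (ZMod p) :=
    { toFun := fun f => f.1 x, map_one' := rfl, map_mul' := fun f g => rfl }
  have hinj : Function.Injective ev := by
    rw [injective_iff_map_eq_one]
    intro f hf
    have hk : f.1.ker = ⊤ := by
      rcases eq_or_top p S f.1.ker hS f.2 with h | h
      · exact absurd (h ▸ (MonoidHom.mem_ker.mpr hf) : x ∈ S) hx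
      · exact h
    apply Subtype.ext
    exact (MonoidHom.ker_eq_top_iff).mp hk
  have hdvd : Nat.card (annS p S) ∣ p := by
    have := Subgroup.card_dvd_of_injective ev hinj
    simpa using this
  rcases (Nat.dvd_prime hp.out).mp hdvd with h | h
  · exfalso
    have hsub : Subsingleton (annS p S) := (Nat.card_eq_one_iff_unique.mp h).1
    have h1 : (⟨f0, hf0.ge⟩ : annS p S) = 1 := Subsingleton.elim _ _
    have h2 : f0 = 1 := congrArg Subtype.val h1
    rw [h2] at hf0
    exact hne (hf0.symm.trans (MonoidHom.ker_one))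
  · exact h

theorem card_ker (hP : Nat.card P = p ^ (a + 1)) (f : P →* Multiplicative (ZMod p)) (hf : f ≠ 1) :
    Nat.card f.ker = p ^ a := by
  apply card_of_index p a hP
  rw [Subgroup.index_ker]
  have hdvd : Nat.card f.range ∣ p := by
    have := Subgroup.card_subgroup_dvd_card f.range
    simpa using this
  rcases (Nat.dvd_prime hp.out).mp hdvd with h | h
  · exfalso
    apply hf
    have : f.range = ⊥ := Subgroup.card_eq_one.mp h
    exact (MonoidHom.range_eq_bot_iff).mp this
  · exact h

theorem card_formula (hP : Nat.card P = p ^ (a + 1)) :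
    Nat.card {S : Subgroup P // Nat.card S = p ^ a} * (p - 1) + 1 =
      Nat.card (P →* Multiplicative (ZMod p)) := by
  classical
  haveI : Finite (P →* Multiplicative (ZMod p)) := Finite.of_injective _ DFunLike.coe_injective
  let A := P →* Multiplicative (ZMod p)
  let X := {S : Subgroup P // Nat.card S = p ^ a}
  haveI : Fintype X := Fintype.ofFinite X
  let φ : {f : A // f ≠ 1} → X := fun f => ⟨f.1.ker, card_ker p a hP f.1 f.2⟩
  have h1 : Nat.card A = Nat.card {f : A // f ≠ 1} + 1 := by
    rw [← Finite.card_option]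
    exact Nat.card_congr (Equiv.optionSubtypeNe (1 : A)).symm
  have h2 : Nat.card {f : A // f ≠ 1} = ∑ S : X, Nat.card {f : {f : A // f ≠ 1} // φ f = S} := by
    rw [← Nat.card_sigma]
    exact Nat.card_congr (Equiv.sigmaFiberEquiv φ).symm
  have h3 : ∀ S : X, Nat.card {f : {f : A // f ≠ 1} // φ f = S} = p - 1 := by
    intro S
    have hSi := index_of_card p a hP S.1 S.2
    have h4 : Nat.card (annS p S.1) = Nat.card {g : annS p S.1 // g ≠ 1} + 1 := by
      rw [← Finite.card_option]
      exact Nat.card_congr (Equiv.optionSubtypeNe (1 : annS p S.1)).symm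
    rw [card_annS p a hP S.1 hSi] at h4
    have h5 : Nat.card {f : {f : A // f ≠ 1} // φ f = S} = Nat.card {g : annS p S.1 // g ≠ 1} := by
      apply Nat.card_congr
      refine ⟨fun f => ⟨⟨f.1.1, (congrArg Subtype.val f.2).ge⟩,
          fun h => f.1.2 (congrArg Subtype.val h)⟩,
        fun g => ⟨⟨g.1.1, fun h => g.2 (Subtype.ext h)⟩, ?_⟩, ?_, ?_⟩
      · apply Subtype.ext
        change g.1.1.ker = S.1
        rcases eq_or_top p S.1 g.1.1.ker hSi g.1.2 with h | h
        · exact h
        · exact absurd (Subtype.ext ((MonoidHom.ker_eq_top_iff).mp h)) g.2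
      · intro f; rfl
      · intro g; rfl
    omega
  change Nat.card X * (p - 1) + 1 = Nat.card A
  rw [h1, h2, Finset.sum_congr rfl (fun S _ => h3 S)]
  simp [Nat.card_eq_fintype_card]

theorem exists_pow (hP : Nat.card P = p ^ (a + 1)) :
    ∃ d, Nat.card {S : Subgroup P // Nat.card S = p ^ a} * (p - 1) + 1 = p ^ d := by
  haveI : Finite (P →* Multiplicative (ZMod p)) := Finite.of_injective _ DFunLike.coe_injective
  rw [card_formula p a hP]
  have h : IsPGroup p (P →* Multiplicative (ZMod p)) := by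
    intro f
    refine ⟨1, ?_⟩
    ext x
    have : (f x) ^ p = 1 := by
      have := pow_card_eq_one' (x := f x)
      simpa using this
    simpa using congrArg Multiplicative.toAdd this
  exact (IsPGroup.iff_card).mp h

end

theorem arith (p N d : ℕ) (hp : p.Prime) (hN : 2 ≤ N) (h : N * (p - 1) + 1 = p ^ d) :
    N ≡ 1 + p [MOD p ^ 2] := by
  have hp1 : 1 ≤ p - 1 := by have := hp.two_le; omega
  have hd : 2 ≤ d := by
    by_contra hlt
    have : d = 0 ∨ d = 1 := by omega
    rcases this with rfl | rfl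
    · simp at h
      rcases h with h | h <;> omega
    · rw [pow_one] at h
      have h1 : N * (p - 1) = 1 * (p - 1) := by omega
      have := Nat.eq_of_mul_eq_mul_right (by omega) h1
      omega
  have h0 : N * (p - 1) + 1 ≡ (1 + p) * (p - 1) + 1 [MOD p ^ 2] := by
    have e1 : (1 + p) * (p - 1) + 1 = p ^ 2 := by
      obtain ⟨q, rfl⟩ : ∃ q, p = q + 1 := ⟨p - 1, by omega⟩
      simp only [Nat.add_sub_cancel]
      ring
    rw [h, e1]
    have : p ^ 2 ∣ p ^ d := pow_dvd_pow p hd
    exact ((Nat.modEq_zero_iff_dvd).mpr this).trans ((Nat.modEq_zero_iff_dvd).mpr dvd_rfl).symm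
  have h1 : N * (p - 1) ≡ (1 + p) * (p - 1) [MOD p ^ 2] := Nat.ModEq.add_right_cancel' 1 h0
  refine Nat.ModEq.cancel_right_of_coprime ?_ h1
  apply Nat.Coprime.pow_left
  rw [Nat.Prime.coprime_iff_not_dvd hp]
  intro hdvd
  have := Nat.le_of_dvd (by omega) hdvd
  omega

theorem mu_eq {G : Type*} [Group G] (n : ℕ) (T : Subgroup G) :
    mu n T = Nat.card {S : Subgroup T // Nat.card S = n} := by
  unfold mu
  apply Nat.card_congr
  refine ⟨fun S => ⟨S.1.subgroupOf T, ?_⟩, fun S => ⟨S.1.map T.subtype, ?_, ?_⟩, ?_, ?_⟩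
  · exact (Nat.card_congr (Subgroup.subgroupOfEquivOfLe S.2.2).toEquiv).trans S.2.1
  · exact (Nat.card_congr
      (Subgroup.equivMapOfInjective S.1 T.subtype T.subtype_injective).toEquiv.symm).trans S.2
  · exact Subgroup.map_subtype_le _
  · intro S
    apply Subtype.ext
    exact Subgroup.map_subgroupOf_eq_of_le S.2.2
  · intro S
    apply Subtype.ext
    exact Subgroup.comap_map_eq_self_of_injective T.subtype_injective S.1

/-- [E2] -/
theorem mu_noncyclic {G : Type*} [Group G] [Finite G] (p a : ℕ) (hp : p.Prime) (T : Subgroup G)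
    (hT : Nat.card T = p ^ (a + 1)) (hc : ¬ IsCyclic T) : mu (p ^ a) T ≡ 1 + p [MOD p ^ 2] := by
  haveI : Fact p.Prime := ⟨hp⟩
  rw [mu_eq]
  obtain ⟨d, hd⟩ := exists_pow p a hT
  refine arith p _ d hp ?_ hd
  by_contra hlt
  apply hc
  have hle : Nat.card {S : Subgroup T // Nat.card S = p ^ a} ≤ 1 := by omega
  have hsub := (Finite.card_le_one_iff_subsingleton).mp hle
  refine Cfsg.Agent.S3977.isCyclic_of_unique_max p a hT ?_
  intro H K hH hK
  exact congrArg Subtype.val (hsub.elim ⟨H, hH⟩ ⟨K, hK⟩)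

end Cfsg.Agent.Lib.Helper93.Kul
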